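/-
The alternating sum over the totally isotropic subspaces of a subspace `K`, with weights
`(-1)^d q^(d choose 2)`, vanishes as soon as `K` has a non-zero radical.
-/
import Mathlib

set_option autoImplicit false

namespace Cfsg.Agent.Lib.SpUnip.Geo

open Module

variable {F : Type*} {V : Type*} [Field F] [AddCommGroup V] [Module F V]

/-- Totally isotropic subspaces. -/
def IsIso (B : LinearMap.BilinForm F V) (S : Submodule F V) : Prop := ∀ x ∈ S, ∀ y ∈ S, B x y = 0

/-- The weight of a subspace of dimension `d`. -/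
def wt (q : ℤ) (d : ℕ) : ℤ := (-1) ^ d * q ^ (d.choose 2)

lemma wt_succ (q : ℤ) (d : ℕ) : wt q (d + 1) = - (q ^ d * wt q d) := by
  unfold wt
  have e2 : (d + 1).choose 2 = d.choose 2 + d := by
    rw [Nat.choose_succ_succ' d 1]
    simp
    ring
  rw [e2, pow_succ (-1 : ℤ) d, pow_add q]
  ring

/-- The complements of a line in `T` correspond to the functionals on `T` equal to one on the line. -/
theorem card_compl [Finite F] [FiniteDimensional F V] (T : Submodule F V) (a : V) (ha : a ∈ T) (h0 : a ≠ 0) {d : ℕ}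
    (hd : finrank F T = d + 1) :
    Nat.card {S : Submodule F V // S ≤ T ∧ a ∉ S ∧ S ⊔ Submodule.span F {a} = T} = Nat.card F ^ d := by
  classical
  set a₀ : T := ⟨a, ha⟩ with ha₀
  have ha₀0 : a₀ ≠ 0 := by
    intro h
    exact h0 (congrArg Subtype.val h)
  -- the functionals
  let ev : Module.Dual F T →ₗ[F] F := LinearMap.applyₗ a₀
  have hev : ∀ φ, ev φ = φ a₀ := fun φ => rfl
  obtain ⟨φ₁, hφ₁⟩ : ∃ φ₁ : Module.Dual F T, φ₁ a₀ = 1 := by
    have hbot : a₀ ∉ (⊥ : Submodule F T) := by simpa using ha₀0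
    obtain ⟨f, hf, -⟩ := Submodule.exists_dual_map_eq_bot_of_notMem hbot inferInstance
    exact ⟨(f a₀)⁻¹ • f, by simp [hf]⟩
  have hsurj : Function.Surjective ev := by
    intro c
    refine ⟨c • φ₁, ?_⟩
    simp [hev, hφ₁]
  have hker : finrank F (LinearMap.ker ev) = d := by
    have h1 := LinearMap.finrank_range_add_finrank_ker ev
    rw [LinearMap.range_eq_top.2 hsurj, finrank_top, Module.finrank_self, Subspace.dual_finrank_eq, hd] at h1
    omega
  -- the complements
  let Φ : {φ : Module.Dual F T // φ a₀ = 1} →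
      {S : Submodule F V // S ≤ T ∧ a ∉ S ∧ S ⊔ Submodule.span F {a} = T} := fun φ =>
    ⟨(LinearMap.ker φ.1).map T.subtype, Submodule.map_subtype_le _ _, by
        rintro ⟨t, ht, hta⟩
        have : t = a₀ := Subtype.ext hta
        rw [SetLike.mem_coe, LinearMap.mem_ker, this, φ.2] at ht
        exact one_ne_zero ht, by
        apply le_antisymm
        · exact sup_le (Submodule.map_subtype_le _ _)
            ((Submodule.span_singleton_le_iff_mem _ _).2 ha)
        · intro x hx
          have hdec : x = ((⟨x, hx⟩ - φ.1 ⟨x, hx⟩ • a₀ : T) : V) + φ.1 ⟨x, hx⟩ • a := by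
            simp [ha₀]
          rw [hdec]
          apply Submodule.add_mem_sup
          · refine ⟨⟨x, hx⟩ - φ.1 ⟨x, hx⟩ • a₀, ?_, rfl⟩
            simp [φ.2]
          · exact Submodule.smul_mem _ _ (Submodule.mem_span_singleton_self a)⟩
  have hΦinj : Function.Injective Φ := by
    intro φ ψ h
    have h1 : (LinearMap.ker φ.1).map T.subtype = (LinearMap.ker ψ.1).map T.subtype :=
      congrArg Subtype.val h
    have h2 : LinearMap.ker φ.1 = LinearMap.ker ψ.1 :=
      Submodule.map_injective_of_injective T.injective_subtype h1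
    apply Subtype.ext
    ext t
    have h3 : t - φ.1 t • a₀ ∈ LinearMap.ker φ.1 := by
      simp [φ.2]
    rw [h2] at h3
    have h4 : ψ.1 (t - φ.1 t • a₀) = 0 := h3
    rw [map_sub, map_smul, ψ.2, smul_eq_mul, mul_one, sub_eq_zero] at h4
    exact h4.symm
  have hΦsurj : Function.Surjective Φ := by
    rintro ⟨S, hST, haS, hsup⟩
    set S₀ : Submodule F T := S.comap T.subtype with hS₀
    have ha₀S : a₀ ∉ S₀ := by
      intro h
      exact haS h
    obtain ⟨f, hf1, hf3⟩ := Submodule.exists_dual_map_eq_bot_of_notMem ha₀S inferInstance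
    have hfa : f a₀ ≠ 0 := hf1
    have hf2 : ∀ {x : T}, x ∈ S₀ → f x = 0 := by
      intro x hx
      have h5 : f x ∈ S₀.map f := ⟨x, hx, rfl⟩
      rw [hf3] at h5
      exact (Submodule.mem_bot F).1 h5
    refine ⟨⟨(f a₀)⁻¹ • f, by simp [hfa]⟩, ?_⟩
    apply Subtype.ext
    show (LinearMap.ker ((f a₀)⁻¹ • f)).map T.subtype = S
    apply le_antisymm
    · rintro _ ⟨t, ht, rfl⟩
      have ht0 : f t = 0 := by
        have : ((f a₀)⁻¹ • f) t = 0 := ht
        simpa [hfa] using this
      have ht2 : (t : V) ∈ S ⊔ Submodule.span F {a} := by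
        rw [hsup]
        exact t.2
      obtain ⟨s, hs, y, hy, hsy⟩ := Submodule.mem_sup.1 ht2
      obtain ⟨c, rfl⟩ := Submodule.mem_span_singleton.1 hy
      have hs0 : (⟨s, hST hs⟩ : T) ∈ S₀ := hs
      have hs1 : f ⟨s, hST hs⟩ = 0 := hf2 hs0
      have ht3 : t = ⟨s, hST hs⟩ + c • a₀ := Subtype.ext (by
        simpa [ha₀] using hsy.symm)
      rw [ht3, map_add, map_smul, hs1, zero_add, smul_eq_mul] at ht0
      have hc : c = 0 := (mul_eq_zero.1 ht0).resolve_right hfa
      subst hc
      simp only [zero_smul, add_zero] at hsy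
      simpa [← hsy] using hs
    · intro s hs
      refine ⟨⟨s, hST hs⟩, ?_, rfl⟩
      have hs0 : (⟨s, hST hs⟩ : T) ∈ S₀ := hs
      have hs1 : f ⟨s, hST hs⟩ = 0 := hf2 hs0
      show ((f a₀)⁻¹ • f) _ = 0
      simp [hs1]
  rw [← Nat.card_congr (Equiv.ofBijective Φ ⟨hΦinj, hΦsurj⟩)]
  -- counting
  let e : {φ : Module.Dual F T // φ a₀ = 1} ≃ LinearMap.ker ev :=
    { toFun := fun φ => ⟨φ.1 - φ₁, by simp [hev, φ.2, hφ₁]⟩
      invFun := fun ψ => ⟨ψ.1 + φ₁, by
        have : ψ.1 a₀ = 0 := ψ.2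
        simp [this, hφ₁]⟩
      left_inv := fun φ => by simp
      right_inv := fun ψ => by simp }
  rw [Nat.card_congr e, Module.natCard_eq_pow_finrank (K := F), hker]

variable [Finite F] [Finite V]

noncomputable local instance instFintypeSub : Fintype (Submodule F V) :=
  haveI : Finite (Submodule F V) := Finite.of_injective (fun S => (S : Set V)) SetLike.coe_injective
  Fintype.ofFinite _

open Classical in
/-- The finite set of totally isotropic subspaces of `K`. -/
noncomputable def isoIn (B : LinearMap.BilinForm F V) (K : Submodule F V) : Finset (Submodule F V) :=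
  Finset.univ.filter fun S => S ≤ K ∧ IsIso B S

theorem mem_isoIn {B : LinearMap.BilinForm F V} {K S : Submodule F V} : S ∈ isoIn B K ↔ S ≤ K ∧ IsIso B S := by
  classical
  simp [isoIn]

/-- **Vanishing**. -/
theorem sum_wt_eq_zero [FiniteDimensional F V] (B : LinearMap.BilinForm F V) (hB : B.IsAlt) (K : Submodule F V)
    (a : V) (haK : a ∈ K) (ha : a ≠ 0) (hrad : ∀ y ∈ K, B a y = 0) (q : ℤ) (hq : q = Nat.card F) :
    ∑ S ∈ isoIn B K, wt q (finrank F S) = 0 := by
  classical
  have hradr : ∀ y ∈ K, B y a = 0 := by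
    intro y hy
    have := hB.neg_eq a y
    rw [hrad y hy, neg_zero] at this
    exact this.symm
  set ℓ := Submodule.span F {a} with hℓ
  rw [← Finset.sum_filter_add_sum_filter_not (isoIn B K) (fun S => a ∈ S)]
  set A := (isoIn B K).filter (fun S => a ∈ S) with hA
  set C := (isoIn B K).filter (fun S => a ∉ S) with hC
  have hmaps : ∀ S ∈ C, S ⊔ ℓ ∈ A := by
    intro S hS
    rw [hC, Finset.mem_filter, mem_isoIn] at hS
    obtain ⟨⟨hSK, hSi⟩, -⟩ := hS
    rw [hA, Finset.mem_filter, mem_isoIn]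
    have hℓK : ℓ ≤ K := (Submodule.span_singleton_le_iff_mem _ _).2 haK
    refine ⟨⟨sup_le hSK hℓK, ?_⟩, Submodule.mem_sup_right (Submodule.mem_span_singleton_self a)⟩
    intro x hx y hy
    obtain ⟨s, hs, u, hu, rfl⟩ := Submodule.mem_sup.1 hx
    obtain ⟨s', hs', u', hu', rfl⟩ := Submodule.mem_sup.1 hy
    obtain ⟨c, rfl⟩ := Submodule.mem_span_singleton.1 hu
    obtain ⟨c', rfl⟩ := Submodule.mem_span_singleton.1 hu'
    simp only [map_add, map_smul, LinearMap.add_apply, LinearMap.smul_apply, hSi s hs s' hs',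
      hradr s (hSK hs), hrad s' (hSK hs'), hB a]
    simp
  rw [← Finset.sum_fiberwise_of_maps_to hmaps (fun S => wt q (finrank F S)), ← Finset.sum_add_distrib]
  apply Finset.sum_eq_zero
  intro T hT
  rw [hA, Finset.mem_filter, mem_isoIn] at hT
  obtain ⟨⟨hTK, hTi⟩, haT⟩ := hT
  obtain ⟨d, hd⟩ : ∃ d, finrank F T = d + 1 := by
    have : 0 < finrank F T := by
      apply Module.finrank_pos_iff_exists_ne_zero.2
      exact ⟨⟨a, haT⟩, fun h => ha (congrArg Subtype.val h)⟩
    exact ⟨finrank F T - 1, by omega⟩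
  have hfib : ∀ S ∈ C.filter (fun S => S ⊔ ℓ = T), finrank F S = d := by
    intro S hS
    rw [Finset.mem_filter, hC, Finset.mem_filter] at hS
    obtain ⟨⟨-, haS⟩, hsup⟩ := hS
    have hinf : S ⊓ ℓ = ⊥ := by
      rw [eq_bot_iff]
      rintro x ⟨hx1, hx2⟩
      obtain ⟨c, rfl⟩ := Submodule.mem_span_singleton.1 hx2
      by_cases hc : c = 0
      · simp [hc]
      · exact absurd ((Submodule.smul_mem_iff _ hc).1 hx1) haS
    have h1 := Submodule.finrank_sup_add_finrank_inf_eq S ℓ
    rw [hsup, hinf, finrank_bot, hd, add_zero, hℓ, finrank_span_singleton ha] at h1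
    omega
  rw [Finset.sum_congr rfl (fun S hS => by rw [hfib S hS]), Finset.sum_const, hd, wt_succ]
  have hcard : (C.filter (fun S => S ⊔ ℓ = T)).card = Nat.card F ^ d := by
    rw [← card_compl T a haT ha hd, Nat.card_eq_fintype_card, Fintype.card_subtype]
    congr 1
    ext S
    simp only [hC, Finset.mem_filter, mem_isoIn, Finset.mem_univ, true_and]
    constructor
    · rintro ⟨⟨-, haS⟩, hsup⟩
      exact ⟨hsup ▸ le_sup_left, haS, hsup⟩
    · rintro ⟨hST, haS, hsup⟩
      exact ⟨⟨⟨hST.trans hTK, fun x hx y hy => hTi x (hST hx) y (hST hy)⟩, haS⟩, hsup⟩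
  rw [hcard, hq]
  simp

end Cfsg.Agent.Lib.SpUnip.Geo
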