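/-
The pointwise stabilizer of a totally isotropic subspace `S` of a symplectic space, mapping onto
the isometry group of a complement `C` of `S` in `S^⊥`; unipotent elements correspond.
-/
import Mathlib
import Cfsg.Agent.Lib.Classical.SympParabolic
import Cfsg.Agent.Lib.SylowLarge.SpForm
import Cfsg.Agent.Lib.SpUnip.Geo

set_option autoImplicit false
set_option linter.unusedSectionVars false
set_option linter.unusedVariables false

universe u v

namespace Cfsg.Agent.Lib.SpUnip.Stab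

open Module Cfsg.Agent.Lib.Classical.Alt Cfsg.Agent.Lib.SpUnip.Geo

variable {F : Type u} {V : Type v} [Field F] [AddCommGroup V] [Module F V]

/-- `g - 1` as an endomorphism. -/
noncomputable def dV {W : Type*} [AddCommGroup W] [Module F W] (g : W ≃ₗ[F] W) : Module.End F W :=
  ((g : W →ₗ[F] W) : Module.End F W) - 1

/-- Unipotent isometries. -/
def Unip (B : LinearMap.BilinForm F V) : Set (V ≃ₗ[F] V) :=
  {g | g ∈ isomGroup B ∧ IsNilpotent (((g : V →ₗ[F] V) : Module.End F V) - 1)}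

/-- Pointwise stabilizer. -/
def fixS (B : LinearMap.BilinForm F V) (S : Submodule F V) : Subgroup (V ≃ₗ[F] V) where
  carrier := {g | g ∈ isomGroup B ∧ ∀ x ∈ S, g x = x}
  mul_mem' := by
    rintro a b ⟨ha, ha'⟩ ⟨hb, hb'⟩
    refine ⟨mul_mem ha hb, fun x hx => ?_⟩
    show a (b x) = x
    rw [hb' x hx, ha' x hx]
  one_mem' := ⟨one_mem _, fun x _ => rfl⟩
  inv_mem' := by
    rintro a ⟨ha, ha'⟩
    refine ⟨inv_mem ha, fun x hx => ?_⟩
    have h1 : a⁻¹ (a x) = x := by
      show (a⁻¹ * a) x = x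
      simp
    rw [ha' x hx] at h1
    exact h1

theorem mem_fixS {B : LinearMap.BilinForm F V} {S : Submodule F V} {g : V ≃ₗ[F] V} :
    g ∈ fixS B S ↔ g ∈ isomGroup B ∧ ∀ x ∈ S, g x = x := Iff.rfl

/-- A decomposition of `S^⊥` as `C ⊕ S`. -/
structure Dec (B : LinearMap.BilinForm F V) (S C : Submodule F V) : Prop where
  alt : B.IsAlt
  nd : B.Nondegenerate
  iso : IsIso B S
  le : C ≤ B.orthogonal S
  dis : C ⊓ S = ⊥
  sup : C ⊔ S = B.orthogonal S

variable {B : LinearMap.BilinForm F V} {S C : Submodule F V}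

theorem mem_orth {x : V} : x ∈ B.orthogonal S ↔ ∀ n ∈ S, B n x = 0 := by
  rw [LinearMap.BilinForm.mem_orthogonal_iff]

theorem exists_dec (hB : B.IsAlt) (hN : B.Nondegenerate) (hS : IsIso B S) : ∃ C, Dec B S C := by
  obtain ⟨D, hD⟩ := Submodule.exists_isCompl S
  have hle : S ≤ B.orthogonal S := fun x hx => mem_orth.2 fun n hn => hS n hn x hx
  refine ⟨D ⊓ B.orthogonal S, hB, hN, hS, inf_le_right, ?_, ?_⟩
  · rw [eq_bot_iff]
    rintro x ⟨⟨hx1, -⟩, hx2⟩
    have : x ∈ D ⊓ S := ⟨hx1, hx2⟩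
    rw [inf_comm, hD.inf_eq_bot] at this
    exact this
  · rw [sup_comm, ← sup_inf_assoc_of_le _ hle, hD.sup_eq_top, top_inf_eq]

namespace Dec

variable (h : Dec B S C)
include h

theorem ortho_cs {c s : V} (hc : c ∈ C) (hs : s ∈ S) : B s c = 0 := mem_orth.1 (h.le hc) s hs

theorem ortho_sc {c s : V} (hc : c ∈ C) (hs : s ∈ S) : B c s = 0 := by
  rw [alt_neg h.alt s c, h.ortho_cs hc hs, neg_zero]

theorem s_le : S ≤ B.orthogonal S := fun x hx => mem_orth.2 fun n hn => h.iso n hn x hx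

variable [FiniteDimensional F V]

theorem restrict_nd : (B.restrict C).Nondegenerate := by
  have hrefl : (B.restrict C).IsRefl := (Cfsg.Agent.Lib.Classical.AltCount.restrict_isAlt h.alt C).isRefl
  refine (LinearMap.IsRefl.nondegenerate_iff_separatingLeft hrefl).2 ?_
  intro x hx
  apply Subtype.ext
  have hmem : (x : V) ∈ B.orthogonal (B.orthogonal S) := by
    rw [mem_orth]
    intro n hn
    rw [← h.sup] at hn
    obtain ⟨c, hc, s, hs, rfl⟩ := Submodule.mem_sup.1 hn
    have h1 : B x.1 c = 0 := hx ⟨c, hc⟩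
    rw [map_add, LinearMap.add_apply, alt_neg h.alt x.1 c, h1, neg_zero, zero_add]
    exact h.ortho_cs x.2 hs
  rw [LinearMap.BilinForm.orthogonal_orthogonal h.nd h.alt.isRefl] at hmem
  have : (x : V) ∈ C ⊓ S := ⟨x.2, hmem⟩
  rw [h.dis] at this
  exact this

theorem compl : IsCompl C (B.orthogonal C) :=
  B.isCompl_orthogonal_of_restrict_nondegenerate h.alt.isRefl h.restrict_nd

theorem s_le_c : S ≤ B.orthogonal C := fun s hs => mem_orth.2 fun c hc => h.ortho_sc hc hs

/-- Orthogonal projection to `C`. -/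
noncomputable def rho : V →ₗ[F] C := Submodule.linearProjOfIsCompl C (B.orthogonal C) h.compl

theorem rho_c {c : V} (hc : c ∈ C) : (h.rho c : V) = c := by
  have := Submodule.linearProjOfIsCompl_apply_left h.compl ⟨c, hc⟩
  exact congrArg Subtype.val this

theorem rho_mem (c : C) : h.rho (c : V) = c := Subtype.ext (h.rho_c c.2)

theorem rho_s {s : V} (hs : s ∈ S) : h.rho s = 0 := by
  exact (Submodule.linearProjOfIsCompl_apply_eq_zero_iff h.compl).2 (h.s_le_c hs)

theorem sub_rho_mem {x : V} (hx : x ∈ B.orthogonal S) : x - h.rho x ∈ S := by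
  rw [← h.sup] at hx
  obtain ⟨c, hc, s, hs, rfl⟩ := Submodule.mem_sup.1 hx
  rw [map_add, h.rho_s hs, add_zero, h.rho_c hc]
  simpa using hs

omit h [FiniteDimensional F V] in
theorem fix_orth {g : V ≃ₗ[F] V} (hg : g ∈ fixS B S) {x : V} (hx : x ∈ B.orthogonal S) : g x ∈ B.orthogonal S := by
  rw [mem_orth] at hx ⊢
  intro n hn
  have h1 := hg.1 n x
  rw [hg.2 n hn] at h1
  rw [h1]
  exact hx n hn

omit h [FiniteDimensional F V] in
theorem sub_orth {g : V ≃ₗ[F] V} (hg : g ∈ fixS B S) (x : V) : g x - x ∈ B.orthogonal S := by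
  rw [mem_orth]
  intro n hn
  have h1 := hg.1 n x
  rw [hg.2 n hn] at h1
  rw [map_sub, h1, sub_self]

/-- The linear map induced on `C`. -/
noncomputable def piL : ↥(fixS B S) →* Module.End F C where
  toFun g := h.rho ∘ₗ (g.1 : V →ₗ[F] V) ∘ₗ C.subtype
  map_one' := by
    ext c
    exact h.rho_c c.2
  map_mul' := by
    intro g g'
    ext c
    have h1 : g'.1 (c : V) ∈ B.orthogonal S := fix_orth g'.2 (h.le c.2)
    have h2 := h.sub_rho_mem h1
    set z := h.rho (g'.1 (c : V)) with hz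
    have h3 : g.1 (g'.1 (c : V)) = g.1 (z : V) + (g'.1 (c : V) - z) := by
      have h4 := g.2.2 _ h2
      rw [← h4, ← map_add]
      congr 1
      abel
    show ((h.rho (g.1 (g'.1 (c : V))) : C) : V) = ((h.rho (g.1 (z : V)) : C) : V)
    rw [h3, map_add, h.rho_s h2, add_zero]

@[simp] theorem piL_apply (g : ↥(fixS B S)) (c : C) : h.piL g c = h.rho (g.1 (c : V)) := rfl

/-- The group homomorphism to the automorphisms of `C`. -/
noncomputable def piE : ↥(fixS B S) →* (C ≃ₗ[F] C) :=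
  (LinearMap.GeneralLinearGroup.generalLinearEquiv F C).toMonoidHom.comp (MonoidHom.toHomUnits h.piL)

@[simp] theorem piE_apply (g : ↥(fixS B S)) (c : C) : h.piE g c = h.rho (g.1 (c : V)) := rfl

theorem piE_isom (g : ↥(fixS B S)) : h.piE g ∈ isomGroup (B.restrict C) := by
  intro c c'
  show B ((h.rho (g.1 (c : V)) : C) : V) ((h.rho (g.1 (c' : V)) : C) : V) = B (c : V) (c' : V)
  have h1 : g.1 (c : V) ∈ B.orthogonal S := fix_orth g.2 (h.le c.2)
  have h2 : g.1 (c' : V) ∈ B.orthogonal S := fix_orth g.2 (h.le c'.2)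
  have h3 := h.sub_rho_mem h1
  have h4 := h.sub_rho_mem h2
  set z := h.rho (g.1 (c : V))
  set z' := h.rho (g.1 (c' : V))
  have h5 : B (g.1 (c : V)) (g.1 (c' : V)) = B (c : V) (c' : V) := g.2.1 _ _
  obtain ⟨t, ht, e1⟩ : ∃ t ∈ S, g.1 (c : V) = (z : V) + t := ⟨_, h3, by abel⟩
  obtain ⟨t', ht', e2⟩ : ∃ t' ∈ S, g.1 (c' : V) = (z' : V) + t' := ⟨_, h4, by abel⟩
  rw [e1, e2] at h5
  simp only [map_add, LinearMap.add_apply] at h5
  have e3 : B (z : V) t' = 0 := h.ortho_sc z.2 ht'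
  have e4 : B t (z' : V) = 0 := h.ortho_cs z'.2 ht
  have e5 : B t t' = 0 := h.iso _ ht _ ht'
  rw [e3, e4, e5, add_zero, add_zero, add_zero] at h5
  exact h5

/-- The group homomorphism to the isometry group of `C`. -/
noncomputable def piB : ↥(fixS B S) →* ↥(isomGroup (B.restrict C)) :=
  h.piE.codRestrict _ h.piE_isom

@[simp] theorem piB_apply (g : ↥(fixS B S)) (c : C) : (h.piB g).1 c = h.rho (g.1 (c : V)) := rfl

theorem piB_surj : Function.Surjective h.piB := by
  rintro ⟨k, hk⟩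
  let ε := Submodule.prodEquivOfIsCompl C (B.orthogonal C) h.compl
  let g : V ≃ₗ[F] V := ε.symm.trans ((LinearEquiv.prodCongr k (LinearEquiv.refl F _)).trans ε)
  have hg : ∀ (c : C) (d : B.orthogonal C), g ((c : V) + d) = ((k c : C) : V) + d := by
    intro c d
    have e : (c : V) + d = ε (c, d) := rfl
    show ε ((LinearEquiv.prodCongr k (LinearEquiv.refl F _)) (ε.symm _)) = _
    rw [e, LinearEquiv.symm_apply_apply]
    rfl
  have hg1 : ∀ x, ∃ (c : C) (d : B.orthogonal C), x = (c : V) + d := by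
    intro x
    refine ⟨(ε.symm x).1, (ε.symm x).2, ?_⟩
    have := ε.apply_symm_apply x
    exact this.symm
  have hdc : ∀ (c : C) (d : B.orthogonal C), B (c : V) (d : V) = 0 := fun c d => mem_orth.1 d.2 c c.2
  have hcd : ∀ (c : C) (d : B.orthogonal C), B (d : V) (c : V) = 0 := fun c d => by
    rw [alt_neg h.alt (c : V) (d : V), hdc, neg_zero]
  have hiso : g ∈ isomGroup B := by
    intro x y
    obtain ⟨c, d, rfl⟩ := hg1 x
    obtain ⟨c', d', rfl⟩ := hg1 y
    rw [hg, hg]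
    have h1 : B ((k c : C) : V) ((k c' : C) : V) = B (c : V) (c' : V) := hk c c'
    simp only [map_add, LinearMap.add_apply, h1, hdc, hcd]
  have hfix : g ∈ fixS B S := by
    refine ⟨hiso, fun s hs => ?_⟩
    have := hg 0 ⟨s, h.s_le_c hs⟩
    simpa using this
  refine ⟨⟨g, hfix⟩, ?_⟩
  apply Subtype.ext
  ext c
  show ((h.rho (g (c : V)) : C) : V) = ((k c : C) : V)
  have h1 := hg c 0
  simp only [ZeroMemClass.coe_zero, add_zero] at h1
  rw [h1, h.rho_c (k c).2]

/-- Powers of `g - 1` and of `πg - 1`. -/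
theorem pow_sub_one (g : ↥(fixS B S)) (n : ℕ) {x : V} (hx : x ∈ B.orthogonal S) :
    (dV g.1 ^ n) x ∈ B.orthogonal S ∧ h.rho ((dV g.1 ^ n) x) = (dV (h.piE g) ^ n) (h.rho x) := by
  induction n generalizing x with
  | zero => exact ⟨by simpa using hx, by simp⟩
  | succ n ih =>
    rw [pow_succ, pow_succ]
    have hD : dV g.1 x = g.1 x - x := rfl
    have hDx : g.1 x - x ∈ B.orthogonal S := sub_orth g.2 x
    have h1 := ih hDx
    refine ⟨h1.1, ?_⟩
    show h.rho ((dV g.1 ^ n) (dV g.1 x)) = (dV (h.piE g) ^ n) (dV (h.piE g) (h.rho x))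
    rw [hD, h1.2]
    congr 1
    have h2 := h.sub_rho_mem hx
    have h3 : g.1 x = g.1 (h.rho x : V) + (x - h.rho x) := by
      have h4 := g.2.2 _ h2
      rw [← h4, ← map_add]
      congr 1
      abel
    have h5 : dV (h.piE g) (h.rho x) = h.rho (g.1 (h.rho x : V)) - h.rho x := rfl
    rw [h5, map_sub, h3, map_add, h.rho_s h2, add_zero]

theorem unip_iff (g : ↥(fixS B S)) : g.1 ∈ Unip B ↔ (h.piB g).1 ∈ Unip (B.restrict C) := by
  constructor
  · rintro ⟨-, n, hn⟩
    refine ⟨(h.piB g).2, n, ?_⟩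
    have hn' : dV g.1 ^ n = 0 := hn
    show dV (h.piE g) ^ n = 0
    ext c
    have h1 := (h.pow_sub_one g n (h.le c.2)).2
    rw [hn', h.rho_mem c] at h1
    rw [← h1]
    simp
  · rintro ⟨-, n, hn⟩
    refine ⟨g.2.1, n + 2, ?_⟩
    have hn' : dV (h.piE g) ^ n = 0 := hn
    show dV g.1 ^ (n + 2) = 0
    ext x
    set D := dV g.1 with hD
    have hDx : ∀ y, D y = g.1 y - y := fun y => rfl
    have e : D ^ (n + 2) = D * D ^ n * D := by
      rw [pow_succ D (n + 1), pow_succ' D n]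
    rw [e]
    show D ((D ^ n) (D x)) = 0
    have h1 : D x ∈ B.orthogonal S := sub_orth g.2 x
    have h2 := h.pow_sub_one g n h1
    have h3 : h.rho ((D ^ n) (D x)) = 0 := by
      rw [h2.2, hn']
      rfl
    have h4 := h.sub_rho_mem h2.1
    rw [h3] at h4
    simp only [ZeroMemClass.coe_zero, sub_zero] at h4
    rw [hDx, g.2.2 _ h4, sub_self]

end Dec

end Cfsg.Agent.Lib.SpUnip.Stab
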