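/-
The number of unipotent isometries fixing a totally isotropic subspace pointwise.
-/
import Mathlib
import Cfsg.Agent.Lib.SpUnip.Stab

set_option autoImplicit false
set_option linter.unusedSectionVars false
set_option linter.unusedVariables false

universe u v

namespace Cfsg.Agent.Lib.SpUnip.Count

open Module Cfsg.Agent.Lib.Classical.Alt Cfsg.Agent.Lib.SpUnip.Geo Cfsg.Agent.Lib.SpUnip.Stab
open Cfsg.Agent.Lib.Classical.SympParabolic Cfsg.Agent.Lib.Classical.SympForm

theorem card_of_surj {H K : Type*} [Group H] [Group K] [Finite H] [Finite K] (π : H →* K)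
    (hπ : Function.Surjective π) (P : K → Prop) :
    Nat.card {h // P (π h)} * Nat.card K = Nat.card H * Nat.card {k // P k} := by
  classical
  let σ := Function.surjInv hπ
  have hσ : ∀ k, π (σ k) = k := Function.surjInv_eq hπ
  let e : {h // P (π h)} ≃ {k // P k} × π.ker :=
    { toFun := fun h => (⟨π h.1, h.2⟩, ⟨(σ (π h.1))⁻¹ * h.1, by simp [MonoidHom.mem_ker, hσ]⟩)
      invFun := fun x => ⟨σ x.1.1 * x.2.1, by
        have : π (σ x.1.1 * x.2.1) = x.1.1 := by
          rw [map_mul, hσ, MonoidHom.mem_ker.1 x.2.2, mul_one]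
        rw [this]
        exact x.1.2⟩
      left_inv := fun h => by
        apply Subtype.ext
        simp
      right_inv := by
        rintro ⟨⟨k, hk⟩, ⟨z, hz⟩⟩
        have h1 : π (σ k * z) = k := by rw [map_mul, hσ, MonoidHom.mem_ker.1 hz, mul_one]
        apply Prod.ext
        · exact Subtype.ext h1
        · apply Subtype.ext
          simp [h1] }
  rw [Nat.card_congr e, Nat.card_prod]
  have h1 := Subgroup.card_mul_index π.ker
  rw [Subgroup.index_ker, MonoidHom.range_eq_top.2 hπ] at h1
  have h2 : Nat.card (⊤ : Subgroup K) = Nat.card K := Nat.card_congr Subgroup.topEquiv.toEquiv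
  rw [h2] at h1
  rw [← h1]
  ring

variable {F : Type u} {V : Type v} [Field F] [AddCommGroup V] [Module F V]
variable {B : LinearMap.BilinForm F V} {S C : Submodule F V}

theorem card_fix_mul [FiniteDimensional F V] [Finite V] (h : Dec B S C) :
    Nat.card {g // g ∈ Unip B ∧ ∀ x ∈ S, g x = x} * Nat.card (isomGroup (B.restrict C)) =
      Nat.card (fixS B S) * Nat.card (Unip (B.restrict C)) := by
  classical
  haveI : Finite C := inferInstance
  have hf : Finite (V ≃ₗ[F] V) := Finite.of_injective (fun g => (g : V → V)) DFunLike.coe_injective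
  have hfC : Finite (C ≃ₗ[F] C) := Finite.of_injective (fun g => (g : C → C)) DFunLike.coe_injective
  have h1 := card_of_surj h.piB h.piB_surj (fun k => k.1 ∈ Unip (B.restrict C))
  have e1 : {g // g ∈ Unip B ∧ ∀ x ∈ S, g x = x} ≃ {g : ↥(fixS B S) // (h.piB g).1 ∈ Unip (B.restrict C)} :=
    { toFun := fun g => ⟨⟨g.1, g.2.1.1, g.2.2⟩, (h.unip_iff ⟨g.1, g.2.1.1, g.2.2⟩).1 g.2.1⟩
      invFun := fun g => ⟨g.1.1, (h.unip_iff g.1).2 g.2, g.1.2.2⟩
      left_inv := fun g => rfl
      right_inv := fun g => rfl }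
  have e2 : {k : ↥(isomGroup (B.restrict C)) // k.1 ∈ Unip (B.restrict C)} ≃ Unip (B.restrict C) :=
    { toFun := fun k => ⟨k.1.1, k.2⟩
      invFun := fun k => ⟨⟨k.1, k.2.1⟩, k.2⟩
      left_inv := fun k => rfl
      right_inv := fun k => rfl }
  rw [Nat.card_congr e1, h1, Nat.card_congr e2]

theorem card_fixS_mul [Finite F] [FiniteDimensional F V] (hB : B.IsAlt) (hN : B.Nondegenerate)
    (hS : IsIso B S) {k : ℕ} (hk : finrank F S = k) :
    Nat.card (fixS B S) * Nat.card (TIF B k) = Nat.card (isomGroup B) := by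
  classical
  let b := Module.finBasisOfFinrankEq F S hk
  let u : Fin k → V := fun i => (b i : V)
  have hu : u ∈ TIF B k :=
    ⟨b.linearIndependent.map' S.subtype (Submodule.ker_subtype S), fun i j => hS _ (b i).2 _ (b j).2⟩
  have hexp : ∀ x ∈ S, ∃ c : Fin k → F, x = ∑ i, c i • u i := by
    intro x hx
    refine ⟨fun i => b.repr ⟨x, hx⟩ i, ?_⟩
    have h1 := b.sum_repr ⟨x, hx⟩
    have h2 := congrArg Subtype.val h1
    simp only [AddSubmonoidClass.coe_finsetSum, SetLike.val_smul] at h2
    exact h2.symm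
  have hHG : fixS B S ≤ isomGroup B := fun g hg => hg.1
  have hSH : ∀ g ∈ isomGroup B, (∀ i, g (u i) = u i) → g ∈ fixS B S := by
    intro g hg hgu
    refine ⟨hg, fun x hx => ?_⟩
    obtain ⟨c, rfl⟩ := hexp x hx
    simp only [map_sum, map_smul, hgu]
  have hA : ∀ v, v ∈ ({u} : Set (Fin k → V)) ↔ ∃ g ∈ fixS B S, ∀ i, g (u i) = v i := by
    intro v
    constructor
    · rintro rfl
      exact ⟨1, one_mem _, fun i => rfl⟩
    · rintro ⟨g, hg, hgv⟩
      have : v = u := by
        funext i
        rw [← hgv i]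
        exact hg.2 _ (b i).2
      exact this
  have := card_relation hB hN hu (fixS B S) hHG hSH {u} hA
  simpa using this

/-- The order of the isometry group, abstractly. -/
theorem card_isomGroup [Finite F] [FiniteDimensional F V] [Finite V] {q : ℕ} (hq : Nat.card F = q) (hB : B.IsAlt)
    (hN : B.Nondegenerate) (m : ℕ) (hV : finrank F V = 2 * m) :
    Nat.card (isomGroup B) = q ^ (m ^ 2) * ∏ i ∈ Finset.range m, (q ^ (2 * (i + 1)) - 1) := by
  have hc : Nat.card V = q ^ (2 * m) := by
    rw [Module.natCard_eq_pow_finrank (K := F), hq, hV]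
  obtain ⟨e, he⟩ := Cfsg.Agent.Lib.SylowLarge.SpForm.exists_form_equiv hq B hB hN m hc
  rw [← card_isom m hq]
  apply Nat.card_congr
  exact
    { toFun := fun g => ⟨e.trans (g.1.trans e.symm), by
        intro x y
        have h1 := g.2 (e x) (e y)
        have h2 := he ((e.symm (g.1 (e x)))) ((e.symm (g.1 (e y))))
        rw [LinearEquiv.apply_symm_apply, LinearEquiv.apply_symm_apply, h1, he] at h2
        show sympBilin m F _ _ = sympBilin m F _ _
        simpa using h2.symm⟩
      invFun := fun g => ⟨e.symm.trans (g.1.trans e), by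
        intro x y
        have h1 := g.2 (e.symm x) (e.symm y)
        have h2 := he (g.1 (e.symm x)) (g.1 (e.symm y))
        have h3 := he (e.symm x) (e.symm y)
        rw [LinearEquiv.apply_symm_apply, LinearEquiv.apply_symm_apply] at h3
        show B (e (g.1 (e.symm x))) (e (g.1 (e.symm y))) = B x y
        rw [h2, h3]
        exact h1⟩
      left_inv := fun g => by
        apply Subtype.ext
        ext x
        simp
      right_inv := fun g => by
        apply Subtype.ext
        ext x
        simp }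

/-- **The count**: the number of unipotent isometries fixing `S` pointwise. -/
theorem card_fix_formula [Finite F] [FiniteDimensional F V] [Finite V] {q : ℕ} (hq : Nat.card F = q) (h : Dec B S C)
    (k l : ℕ) (hV : finrank F V = 2 * (k + l)) (hk : finrank F S = k) :
    finrank F C = 2 * l ∧ Nat.card {g // g ∈ Unip B ∧ ∀ x ∈ S, g x = x} =
      q ^ (k * (k + 1) / 2 + 2 * k * l) * Nat.card (Unip (B.restrict C)) := by
  classical
  have hq1 : 2 ≤ q := hq ▸ Finite.one_lt_card
  have hfC : finrank F C = 2 * l := by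
    have h1 := Submodule.finrank_sup_add_finrank_inf_eq C S
    rw [h.sup, h.dis, finrank_bot, LinearMap.BilinForm.finrank_orthogonal h.nd S, hV, hk] at h1
    omega
  refine ⟨hfC, ?_⟩
  have h1 := card_fix_mul h
  have h2 := card_fixS_mul h.alt h.nd h.iso hk
  have h3 := card_isomGroup hq h.alt h.nd (k + l) hV
  have h4 : Nat.card (isomGroup (B.restrict C)) = q ^ (l ^ 2) * ∏ i ∈ Finset.range l, (q ^ (2 * (i + 1)) - 1) :=
    card_isomGroup hq (Cfsg.Agent.Lib.Classical.AltCount.restrict_isAlt h.alt C) h.restrict_nd l hfC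
  have h5 := card_TIF h.alt h.nd hq hV k
  have hkm : k ≤ k + l := by omega
  have e2m : 2 * (k + l) = 2 * (k + l) := rfl
  rw [prod_frames q (k + l) k (by omega) hkm] at h5
  rw [prod_split q (k + l) k hkm, Nat.add_sub_cancel_left] at h3
  set R := ∏ i ∈ Finset.range k, (q ^ (2 * (k + l - i)) - 1) with hR
  set Tl := ∏ i ∈ Finset.range l, (q ^ (2 * (i + 1)) - 1) with hTl
  have hRpos : 0 < R := by
    apply Finset.prod_pos
    intro i hi
    have hi' := Finset.mem_range.1 hi
    have h6 : 2 ≤ q ^ (2 * (k + l - i)) := by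
      calc 2 ≤ q := hq1
        _ = q ^ 1 := (pow_one q).symm
        _ ≤ q ^ (2 * (k + l - i)) := Nat.pow_le_pow_right (by omega) (by omega)
    omega
  have hTlpos : 0 < Tl := by
    apply Finset.prod_pos
    intro i hi
    have h6 : 2 ≤ q ^ (2 * (i + 1)) := by
      calc 2 ≤ q := hq1
        _ = q ^ 1 := (pow_one q).symm
        _ ≤ q ^ (2 * (i + 1)) := Nat.pow_le_pow_right (by omega) (by omega)
    omega
  rw [h5, h3, exp_identity k l] at h2
  -- the order of the stabilizer
  have h7 : Nat.card (fixS B S) = q ^ (k * (k + 1) / 2 + 2 * k * l) * (q ^ (l ^ 2) * Tl) := by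
    have hpos : 0 < q ^ (k * (k - 1) / 2) * R := Nat.mul_pos (pow_pos (by omega) _) hRpos
    apply Nat.eq_of_mul_eq_mul_right hpos
    rw [h2, pow_add, pow_add]
    ring
  rw [h4, h7] at h1
  have hpos : 0 < q ^ (l ^ 2) * Tl := Nat.mul_pos (pow_pos (by omega) _) hTlpos
  apply Nat.eq_of_mul_eq_mul_right hpos
  rw [h1]
  ring

end Cfsg.Agent.Lib.SpUnip.Count
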