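/-
Numerical identities behind the count of unipotent elements of the symplectic group.
`Iq q m d` is the number of totally isotropic `d`-subspaces of a `2m`-dimensional symplectic space.
-/
import Mathlib

set_option autoImplicit false

namespace Cfsg.Agent.Lib.SpUnip.Numeric

open Finset

/-- The number of totally isotropic `d`-subspaces, as a rational function of `q`. -/
noncomputable def Iq (q : ℚ) (m d : ℕ) : ℚ :=
  ∏ j ∈ range d, ((q ^ (2 * (m - j)) - 1) / (q ^ (j + 1) - 1))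

@[simp] lemma Iq_zero (q : ℚ) (m : ℕ) : Iq q m 0 = 1 := by simp [Iq]

lemma Iq_of_lt (q : ℚ) {m d : ℕ} (h : m < d) : Iq q m d = 0 := by
  unfold Iq
  apply Finset.prod_eq_zero (Finset.mem_range.2 h)
  simp

lemma Iq_succ (q : ℚ) (m d : ℕ) :
    Iq q m (d + 1) = Iq q m d * ((q ^ (2 * (m - d)) - 1) / (q ^ (d + 1) - 1)) := by
  unfold Iq
  rw [Finset.prod_range_succ]

lemma Iq_succ_succ (q : ℚ) (m d : ℕ) :
    Iq q (m + 1) (d + 1) = Iq q m d * ((q ^ (2 * (m + 1)) - 1) / (q ^ (d + 1) - 1)) := by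
  unfold Iq
  simp only [Finset.prod_div_distrib]
  rw [Finset.prod_range_succ' (fun j => q ^ (2 * (m + 1 - j)) - 1) d,
    Finset.prod_range_succ (fun j => q ^ (j + 1) - 1) d]
  simp only [Nat.add_sub_add_right, Nat.sub_zero]
  rw [div_mul_div_comm]

lemma pow_sub_one_ne (q : ℚ) (hq : 1 < q) (n : ℕ) : q ^ (n + 1) - 1 ≠ 0 := by
  have : 1 < q ^ (n + 1) := one_lt_pow₀ hq (by omega)
  linarith

/-- The three-term recursion: fix a point `a`; count according to position relative to `a`. -/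
lemma Iq_rec (q : ℚ) (hq : 1 < q) (m d : ℕ) (hd : d ≤ m) :
    Iq q (m + 1) (d + 1) = q ^ (d + 1) * Iq q m (d + 1) + (q ^ (2 * m + 1 - d) + 1) * Iq q m d := by
  rw [Iq_succ_succ, Iq_succ]
  have h1 := pow_sub_one_ne q hq d
  obtain ⟨k, rfl⟩ := Nat.exists_eq_add_of_le hd
  have e1 : d + k - d = k := by omega
  have e2 : 2 * (d + k) + 1 - d = d + 2 * k + 1 := by omega
  rw [e1, e2]
  field_simp
  ring

/-- The summand of `J`. -/
noncomputable def jt (q : ℚ) (m d : ℕ) : ℚ := Iq q m d * ((-1) ^ d * q ^ (d.choose 2))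

/-- The summand of `G`. -/
noncomputable def gt (q : ℚ) (m d : ℕ) : ℚ := Iq q m d * ((-1) ^ d * q ^ ((m - d) ^ 2))

theorem J_eq (q : ℚ) (hq : 1 < q) (m : ℕ) :
    ∑ d ∈ range (m + 1), jt q m d = (-1) ^ m * q ^ (m ^ 2) := by
  induction m with
  | zero => simp [jt]
  | succ m ih =>
    have hq0 : q ≠ 0 := by linarith
    rw [Finset.sum_range_succ']
    let a : ℕ → ℚ := fun d => q ^ d * jt q m d
    have key : ∀ e ∈ range (m + 1),
        jt q (m + 1) (e + 1) = (a (e + 1) - a e) - q ^ (2 * m + 1) * jt q m e := by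
      intro e he
      have he' : e ≤ m := by
        have := Finset.mem_range.1 he
        omega
      simp only [a, jt]
      rw [Iq_rec q hq m e he']
      have e2 : (e + 1).choose 2 = e.choose 2 + e := by
        rw [Nat.choose_succ_succ' e 1]
        simp
        ring
      rw [e2]
      have e3 : q ^ (2 * m + 1) = q ^ (2 * m + 1 - e) * q ^ e := by
        rw [← pow_add]
        congr 1
        omega
      rw [e3, pow_succ (-1 : ℚ) e, pow_add q (e.choose 2) e]
      ring
    rw [Finset.sum_congr rfl key, Finset.sum_sub_distrib, Finset.sum_range_sub, ← Finset.mul_sum, ih]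
    have h0 : a (m + 1) = 0 := by
      simp only [a, jt, Iq_of_lt q (Nat.lt_succ_self m)]
      ring
    have h1 : a 0 = 1 := by simp [a, jt]
    have h2 : jt q (m + 1) 0 = 1 := by simp [jt]
    rw [h0, h1, h2]
    have e4 : (m + 1) ^ 2 = (2 * m + 1) + m ^ 2 := by ring
    rw [e4, pow_add q (2 * m + 1), pow_succ (-1 : ℚ) m]
    ring

theorem G_eq (q : ℚ) (hq : 1 < q) (m : ℕ) :
    ∑ d ∈ range (m + 1), gt q m d = (-1) ^ m := by
  induction m with
  | zero => simp [gt]
  | succ m ih =>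
    rw [Finset.sum_range_succ']
    let c : ℕ → ℚ := fun d => Iq q m d * ((-1) ^ d * q ^ ((m + 1 - d) ^ 2 + d))
    have key : ∀ e ∈ range (m + 1),
        gt q (m + 1) (e + 1) = (c (e + 1) - c e) - gt q m e := by
      intro e he
      have he' : e ≤ m := by
        have := Finset.mem_range.1 he
        omega
      simp only [c, gt]
      rw [Iq_rec q hq m e he']
      obtain ⟨k, rfl⟩ := Nat.exists_eq_add_of_le he'
      have e1 : e + k + 1 - (e + 1) = k := by omega
      have e2 : e + k + 1 - e = k + 1 := by omega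
      have e3 : e + k - e = k := by omega
      have e4 : 2 * (e + k) + 1 - e = e + 2 * k + 1 := by omega
      rw [e1, e2, e3, e4]
      have e5 : (k + 1) ^ 2 + e = k ^ 2 + (e + 2 * k + 1) := by ring
      rw [e5, pow_add q (k ^ 2) (e + 2 * k + 1), pow_add q (k ^ 2) (e + 1), pow_succ (-1 : ℚ) e]
      ring
    rw [Finset.sum_congr rfl key, Finset.sum_sub_distrib, Finset.sum_range_sub, ih]
    have h0 : c (m + 1) = 0 := by
      simp only [c, Iq_of_lt q (Nat.lt_succ_self m)]
      ring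
    have h1 : c 0 = q ^ ((m + 1) ^ 2) := by simp [c]
    have h2 : gt q (m + 1) 0 = q ^ ((m + 1) ^ 2) := by simp [gt]
    rw [h0, h1, h2, pow_succ (-1 : ℚ) m]
    ring

/-- `Iq` times the order of `GL_d` is the number of isotropic frames. -/
theorem Iq_mul_gl (q : ℕ) (hq : 2 ≤ q) (m d : ℕ) (hd : d ≤ m) :
    Iq (q : ℚ) m d * ((∏ i : Fin d, (q ^ d - q ^ (i : ℕ)) : ℕ) : ℚ) =
      ((∏ i ∈ range d, (q ^ (2 * m - i) - q ^ i) : ℕ) : ℚ) := by
  have hq1 : (1 : ℚ) < q := by exact_mod_cast (by omega : 1 < q)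
  have hq0 : 1 ≤ q := by omega
  rw [Fin.prod_univ_eq_prod_range (fun i => q ^ d - q ^ i) d]
  have h1 : ∀ i ∈ range d, (((q ^ d - q ^ i : ℕ) : ℚ)) = (q : ℚ) ^ i * ((q : ℚ) ^ (d - i) - 1) := by
    intro i hi
    have hi' := Finset.mem_range.1 hi
    rw [Nat.cast_sub (Nat.pow_le_pow_right hq0 hi'.le)]
    push_cast
    rw [mul_sub, ← pow_add, mul_one]
    congr 2
    omega
  have h2 : ∀ i ∈ range d, (((q ^ (2 * m - i) - q ^ i : ℕ) : ℚ)) =
      (q : ℚ) ^ i * ((q : ℚ) ^ (2 * (m - i)) - 1) := by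
    intro i hi
    have hi' := Finset.mem_range.1 hi
    have hi2 : i ≤ 2 * m - i := by omega
    rw [Nat.cast_sub (Nat.pow_le_pow_right hq0 hi2)]
    push_cast
    rw [mul_sub, ← pow_add, mul_one]
    congr 2
    omega
  push_cast
  rw [Finset.prod_congr rfl h1, Finset.prod_congr rfl h2, Finset.prod_mul_distrib, Finset.prod_mul_distrib]
  have h3 : ∏ i ∈ range d, ((q : ℚ) ^ (d - i) - 1) = ∏ i ∈ range d, ((q : ℚ) ^ (i + 1) - 1) := by
    rw [← Finset.prod_range_reflect]
    apply Finset.prod_congr rfl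
    intro i hi
    have hi' := Finset.mem_range.1 hi
    congr 2
    omega
  rw [h3]
  unfold Iq
  rw [Finset.prod_div_distrib]
  have h4 : ∏ i ∈ range d, ((q : ℚ) ^ (i + 1) - 1) ≠ 0 :=
    Finset.prod_ne_zero_iff.2 fun i _ => pow_sub_one_ne _ hq1 i
  field_simp

end Cfsg.Agent.Lib.SpUnip.Numeric
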