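/-
Steinberg's count of unipotent elements of the symplectic group, by an elementary double count:
sum over unipotent `g` of the alternating sum over the isotropic subspaces of `ker (g - 1)`.
-/
import Mathlib
import Cfsg.Agent.Lib.SpUnip.Count
import Cfsg.Agent.Lib.SpUnip.Numeric

set_option autoImplicit false
set_option linter.unusedSectionVars false
set_option linter.unusedVariables false

universe u v

namespace Cfsg.Agent.Lib.SpUnip.Main

open Module Cfsg.Agent.Lib.Classical.Alt Cfsg.Agent.Lib.SpUnip.Geo Cfsg.Agent.Lib.SpUnip.Stab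
open Cfsg.Agent.Lib.SpUnip.Count Cfsg.Agent.Lib.SpUnip.Numeric
open Cfsg.Agent.Lib.Classical.SympParabolic Cfsg.Agent.Lib.Classical.SympForm

variable {F : Type u} {V : Type v} [Field F] [AddCommGroup V] [Module F V]
variable {B : LinearMap.BilinForm F V}

theorem exists_rad {g : V ≃ₗ[F] V} (hg : g ∈ Unip B) (h1 : g ≠ 1) :
    ∃ a, a ≠ 0 ∧ dV g a = 0 ∧ ∀ y, dV g y = 0 → B a y = 0 := by
  classical
  have hD : ∀ y, dV g y = g y - y := fun y => rfl
  have hn : ∃ n, dV g ^ n = 0 := hg.2
  set n := Nat.find hn with hndef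
  have hn0 : dV g ^ n = 0 := Nat.find_spec hn
  have hne : dV g ≠ 0 := by
    intro h0
    apply h1
    ext x
    have := hD x
    rw [h0, LinearMap.zero_apply] at this
    exact (sub_eq_zero.1 this.symm)
  obtain ⟨j, hj⟩ : ∃ j, n = j + 2 := by
    match hnm : n with
    | 0 =>
      exfalso
      rw [pow_zero] at hn0
      apply h1
      ext x
      have : x = 0 := by
        have := congrArg (fun f : Module.End F V => f x) hn0
        simpa using this
      have h2 : g x = 0 := by
        have := congrArg (fun f : Module.End F V => f (g x)) hn0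
        simpa using this
      rw [h2, this]
      simp
    | 1 =>
      exfalso
      rw [pow_one] at hn0
      exact hne hn0
    | j + 2 => exact ⟨j, rfl⟩
  have hmin : dV g ^ (j + 1) ≠ 0 := Nat.find_min hn (by omega : j + 1 < n)
  obtain ⟨x, hx⟩ : ∃ x, (dV g ^ (j + 1)) x ≠ 0 := by
    by_contra hcon
    push_neg at hcon
    exact hmin (LinearMap.ext hcon)
  refine ⟨(dV g ^ (j + 1)) x, hx, ?_, ?_⟩
  · have e : dV g ^ (j + 2) = dV g * dV g ^ (j + 1) := pow_succ' _ _
    rw [hj, e] at hn0
    exact congrArg (fun f : Module.End F V => f x) hn0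
  · intro y hy
    have e : dV g ^ (j + 1) = dV g * dV g ^ j := pow_succ' _ _
    rw [e]
    show B (dV g ((dV g ^ j) x)) y = 0
    rw [hD, map_sub, LinearMap.sub_apply]
    have hy' : g y = y := sub_eq_zero.1 ((hD y).symm.trans hy)
    have h2 := hg.1 ((dV g ^ j) x) y
    rw [hy'] at h2
    rw [h2, sub_self]

theorem mem_ker_iff {g : V ≃ₗ[F] V} {x : V} : x ∈ LinearMap.ker (dV g) ↔ g x = x := by
  rw [LinearMap.mem_ker]
  show g x - x = 0 ↔ _
  exact sub_eq_zero

theorem ker_dV_one : LinearMap.ker (dV (1 : V ≃ₗ[F] V)) = ⊤ := by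
  rw [eq_top_iff]
  intro x _
  rw [mem_ker_iff]
  rfl

variable [Finite F] [FiniteDimensional F V]

noncomputable local instance instFintypeSub' [Finite V] : Fintype (Submodule F V) :=
  haveI : Finite (Submodule F V) := Finite.of_injective (fun S => (S : Set V)) SetLike.coe_injective
  Fintype.ofFinite _

/-- The double count. -/
theorem double_count [Finite V] (hB : B.IsAlt) (q : ℤ) (hq : q = Nat.card F) :
    ∑ S ∈ isoIn B (⊤ : Submodule F V), wt q (finrank F S) * (Nat.card {g // g ∈ Unip B ∧ ∀ x ∈ S, g x = x} : ℤ) =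
      ∑ S ∈ isoIn B (⊤ : Submodule F V), wt q (finrank F S) := by
  classical
  haveI hfin : Finite (V ≃ₗ[F] V) := Finite.of_injective (fun g => (g : V → V)) DFunLike.coe_injective
  haveI : Fintype (V ≃ₗ[F] V) := Fintype.ofFinite _
  let U : Finset (V ≃ₗ[F] V) := Finset.univ.filter (fun g => g ∈ Unip B)
  have h1 : ∑ g ∈ U, ∑ S ∈ isoIn B (LinearMap.ker (dV g)), wt q (finrank F S) =
      ∑ S ∈ isoIn B (⊤ : Submodule F V), wt q (finrank F S) := by
    rw [Finset.sum_eq_single (1 : V ≃ₗ[F] V)]
    · rw [ker_dV_one]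
    · intro g hg hg1
      rw [Finset.mem_filter] at hg
      obtain ⟨a, ha, hak, harad⟩ := exists_rad hg.2 hg1
      exact sum_wt_eq_zero B hB _ a (LinearMap.mem_ker.2 hak) ha (fun y hy => harad y (LinearMap.mem_ker.1 hy)) q hq
    · intro h0
      exfalso
      apply h0
      rw [Finset.mem_filter]
      refine ⟨Finset.mem_univ _, one_mem _, 1, ?_⟩
      show dV (1 : V ≃ₗ[F] V) ^ 1 = 0
      rw [pow_one]
      ext x
      show (1 : V ≃ₗ[F] V) x - x = 0
      simp
  rw [← h1]
  rw [Finset.sum_comm' (t' := isoIn B (⊤ : Submodule F V))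
    (s' := fun S => U.filter (fun g => ∀ x ∈ S, g x = x))]
  · apply Finset.sum_congr rfl
    intro S hS
    rw [Finset.sum_const, nsmul_eq_mul, mul_comm]
    congr 2
    rw [Nat.card_eq_fintype_card, Fintype.card_subtype]
    congr 1
    ext g
    simp [U]
  · intro g S
    simp only [mem_isoIn, Finset.mem_filter, U, Finset.mem_univ, true_and, le_top]
    constructor
    · rintro ⟨hg, hSk, hSi⟩
      exact ⟨⟨hg, fun x hx => mem_ker_iff.1 (hSk hx)⟩, hSi⟩
    · rintro ⟨⟨hg, hfix⟩, hSi⟩
      exact ⟨hg, fun x hx => mem_ker_iff.2 (hfix x hx), hSi⟩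

/-- Counting isotropic subspaces by counting their bases. -/
theorem card_iso_mul [Finite V] (hq : ℕ) (hq' : Nat.card F = hq) (d : ℕ) :
    Nat.card {S : Submodule F V // IsIso B S ∧ finrank F S = d} * ∏ i : Fin d, (hq ^ d - hq ^ (i : ℕ)) =
      Nat.card (TIF B d) := by
  classical
  haveI : Fintype F := Fintype.ofFinite F
  have hq'' : Fintype.card F = hq := by rw [← hq', Nat.card_eq_fintype_card]
  let φ : TIF B d → {S : Submodule F V // IsIso B S ∧ finrank F S = d} := fun u =>
    ⟨Submodule.span F (Set.range u.1), by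
      intro x hx y hy
      induction hx using Submodule.span_induction with
      | mem x hx =>
        obtain ⟨i, rfl⟩ := hx
        induction hy using Submodule.span_induction with
        | mem y hy =>
          obtain ⟨j, rfl⟩ := hy
          exact u.2.2 i j
        | zero => simp
        | add a b _ _ ha hb => rw [map_add, ha, hb, add_zero]
        | smul c a _ ha => rw [map_smul, ha, smul_zero]
      | zero => simp
      | add a b _ _ ha hb => rw [map_add, LinearMap.add_apply, ha, hb, add_zero]
      | smul c a _ ha => rw [map_smul, LinearMap.smul_apply, ha, smul_zero], by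
      have := finrank_span_eq_card u.2.1
      simpa using this⟩
  have hfib : ∀ S, Nat.card {u // φ u = S} = ∏ i : Fin d, (hq ^ d - hq ^ (i : ℕ)) := by
    rintro ⟨S, hSi, hSd⟩
    have e : {u // φ u = ⟨S, hSi, hSd⟩} ≃ {w : Fin d → S // LinearIndependent F w} :=
      { toFun := fun u => ⟨fun i => ⟨u.1.1 i, by
            have h1 : Submodule.span F (Set.range u.1.1) = S := congrArg Subtype.val u.2
            have h2 : u.1.1 i ∈ Submodule.span F (Set.range u.1.1) := Submodule.subset_span ⟨i, rfl⟩
            rwa [h1] at h2⟩, by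
          apply LinearIndependent.of_comp S.subtype
          exact u.1.2.1⟩
        invFun := fun w => ⟨⟨fun i => (w.1 i : V), w.2.map' S.subtype (Submodule.ker_subtype _),
            fun i j => hSi _ (w.1 i).2 _ (w.1 j).2⟩, by
          apply Subtype.ext
          have h1 : Submodule.span F (Set.range fun i => (w.1 i : V)) ≤ S := by
            rw [Submodule.span_le]
            rintro _ ⟨i, rfl⟩
            exact (w.1 i).2
          apply Submodule.eq_of_le_of_finrank_eq h1
          rw [hSd]
          have hL : LinearIndependent F (fun i => (w.1 i : V)) := w.2.map' S.subtype (Submodule.ker_subtype _)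
          have h2 := finrank_span_eq_card hL
          rw [Fintype.card_fin] at h2
          exact h2⟩
        left_inv := fun u => by
          apply Subtype.ext
          apply Subtype.ext
          rfl
        right_inv := fun w => by
          apply Subtype.ext
          rfl }
    rw [Nat.card_congr e, card_linearIndependent (by rw [hSd]), hSd, hq'']
  have h1 := Nat.card_congr (Equiv.sigmaFiberEquiv φ)
  haveI : Fintype {S : Submodule F V // IsIso B S ∧ finrank F S = d} := Fintype.ofFinite _
  rw [← h1, Nat.card_sigma]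
  simp only [hfib]
  rw [Finset.sum_const, Finset.card_univ, ← Nat.card_eq_fintype_card, smul_eq_mul]

/-- Exponent arithmetic. -/
theorem expo (k l : ℕ) : k.choose 2 + (k * (k + 1) / 2 + 2 * k * l) + 2 * l ^ 2 = l ^ 2 + (k + l) ^ 2 := by
  have h1 := exp_identity k l
  rw [Nat.choose_two_right]
  omega

/-- **Steinberg's count for symplectic spaces.** -/
theorem card_unip {q : ℕ} (hq : Nat.card F = q) (m : ℕ) :
    ∀ (V : Type v) [AddCommGroup V] [Module F V] [FiniteDimensional F V] (B : LinearMap.BilinForm F V),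
      B.IsAlt → B.Nondegenerate → finrank F V = 2 * m → Nat.card (Unip B) = q ^ (2 * m ^ 2) := by
  classical
  induction m using Nat.strong_induction_on with
  | _ m ih =>
    intro V _ _ _ B hB hN hV
    haveI : Finite V := Module.finite_of_finite F
    have hq2 : 2 ≤ q := hq ▸ Finite.one_lt_card
    have hq1 : (1 : ℚ) < q := by exact_mod_cast (by omega : 1 < q)
    set N := Nat.card (Unip B) with hNdef
    let τ : ℕ → ℕ := fun d => if d = 0 then N else
      q ^ (d * (d + 1) / 2 + 2 * d * (m - d)) * q ^ (2 * (m - d) ^ 2)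
    have hdim : ∀ S ∈ isoIn B (⊤ : Submodule F V), finrank F S ≤ m := by
      intro S hS
      have hS' := (mem_isoIn.1 hS).2
      have hle : S ≤ B.orthogonal S := fun x hx => mem_orth.2 fun n hn => hS' n hn x hx
      have h1 := Submodule.finrank_mono hle
      rw [LinearMap.BilinForm.finrank_orthogonal hN S, hV] at h1
      omega
    have hT : ∀ S ∈ isoIn B (⊤ : Submodule F V),
        Nat.card {g // g ∈ Unip B ∧ ∀ x ∈ S, g x = x} = τ (finrank F S) := by
      intro S hS
      have hSi := (mem_isoIn.1 hS).2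
      have hd := hdim S hS
      set d := finrank F S with hdd
      by_cases hd0 : d = 0
      · have hbot : S = ⊥ := Submodule.finrank_eq_zero.1 hd0
        simp only [τ, hd0, if_true]
        rw [hNdef]
        apply Nat.card_congr
        exact
          { toFun := fun g => ⟨g.1, g.2.1⟩
            invFun := fun g => ⟨g.1, g.2, fun x hx => by
              rw [hbot, Submodule.mem_bot] at hx
              rw [hx, map_zero]⟩
            left_inv := fun g => rfl
            right_inv := fun g => rfl }
      · obtain ⟨C, hC⟩ := exists_dec hB hN hSi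
        have hV' : finrank F V = 2 * (d + (m - d)) := by
          rw [hV]
          congr 1
          omega
        obtain ⟨hfC, he⟩ := card_fix_formula hq hC d (m - d) hV' hdd.symm
        rw [he]
        simp only [τ, hd0, if_false]
        congr 1
        exact ih (m - d) (by omega) C (B.restrict C)
          (Cfsg.Agent.Lib.Classical.AltCount.restrict_isAlt hB C) hC.restrict_nd hfC
    have hdc := double_count hB (q : ℤ) (by rw [hq])
    -- grouping by dimension
    let n : ℕ → ℕ := fun d => ((isoIn B (⊤ : Submodule F V)).filter (fun S : Submodule F V => finrank F S = d)).card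
    have hmaps : ∀ S ∈ isoIn B (⊤ : Submodule F V), finrank F S ∈ Finset.range (m + 1) := fun S hS =>
      Finset.mem_range.2 (Nat.lt_succ_of_le (hdim S hS))
    have hgroup : ∀ φ : ℕ → ℤ, ∑ S ∈ isoIn B (⊤ : Submodule F V), φ (finrank F S) =
        ∑ d ∈ Finset.range (m + 1), (n d : ℤ) * φ d := by
      intro φ
      rw [← Finset.sum_fiberwise_of_maps_to hmaps]
      apply Finset.sum_congr rfl
      intro d _
      have h1 : ∀ S : Submodule F V, S ∈ (isoIn B (⊤ : Submodule F V)).filter (fun S : Submodule F V => finrank F S = d) →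
          φ (finrank F S) = φ d :=
        fun S hS => by rw [(Finset.mem_filter.1 hS).2]
      rw [Finset.sum_congr rfl h1, Finset.sum_const, nsmul_eq_mul]
    have hdc2 : ∑ d ∈ Finset.range (m + 1), (n d : ℤ) * (wt (q : ℤ) d * (τ d : ℤ)) =
        ∑ d ∈ Finset.range (m + 1), (n d : ℤ) * wt (q : ℤ) d := by
      rw [← hgroup, ← hgroup (fun d => wt (q : ℤ) d), ← hdc]
      apply Finset.sum_congr rfl
      intro S hS
      rw [hT S hS]
    -- the number of subspaces
    have hn : ∀ d ∈ Finset.range (m + 1), (n d : ℚ) = Iq (q : ℚ) m d := by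
      intro d hd
      have hd' : d ≤ m := Nat.lt_succ_iff.1 (Finset.mem_range.1 hd)
      have h1 := card_iso_mul (B := B) q hq d
      rw [card_TIF hB hN hq hV d] at h1
      have hnd : Nat.card {S : Submodule F V // IsIso B S ∧ finrank F S = d} = n d := by
        rw [Nat.card_eq_fintype_card, Fintype.card_subtype]
        refine (congrArg Finset.card ?_ : _ = ((isoIn B (⊤ : Submodule F V)).filter (fun S : Submodule F V => finrank F S = d)).card)
        ext S
        simp [mem_isoIn]
      rw [hnd] at h1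
      have h2 := Iq_mul_gl q hq2 m d hd'
      have h3 : ((∏ i : Fin d, (q ^ d - q ^ (i : ℕ)) : ℕ) : ℚ) ≠ 0 := by
        rw [Nat.cast_ne_zero]
        apply Finset.prod_ne_zero_iff.2
        intro i _
        have : q ^ (i : ℕ) < q ^ d := Nat.pow_lt_pow_right (by omega) i.2
        omega
      apply mul_right_cancel₀ h3
      rw [h2, ← h1]
      push_cast
      rfl
    -- into the rationals
    have hdc3 : ∑ d ∈ Finset.range (m + 1), Iq (q : ℚ) m d * (((-1) ^ d * (q : ℚ) ^ (d.choose 2)) * (τ d : ℚ)) =
        ∑ d ∈ Finset.range (m + 1), Iq (q : ℚ) m d * ((-1) ^ d * (q : ℚ) ^ (d.choose 2)) := by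
      have h5 := congrArg (fun z : ℤ => (z : ℚ)) hdc2
      simp only [Int.cast_sum, Int.cast_mul, Int.cast_natCast] at h5
      have h6 : ∀ d, ((wt (q : ℤ) d : ℤ) : ℚ) = (-1) ^ d * (q : ℚ) ^ (d.choose 2) := by
        intro d
        simp [wt]
      simp only [h6] at h5
      calc ∑ d ∈ Finset.range (m + 1), Iq (q : ℚ) m d * (((-1) ^ d * (q : ℚ) ^ (d.choose 2)) * (τ d : ℚ))
          = ∑ d ∈ Finset.range (m + 1), (n d : ℚ) * (((-1) ^ d * (q : ℚ) ^ (d.choose 2)) * (τ d : ℚ)) :=
            Finset.sum_congr rfl (fun d hd => by rw [hn d hd])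
        _ = ∑ d ∈ Finset.range (m + 1), (n d : ℚ) * ((-1) ^ d * (q : ℚ) ^ (d.choose 2)) := h5
        _ = _ := Finset.sum_congr rfl (fun d hd => by rw [hn d hd])
    have hJ := J_eq (q : ℚ) hq1 m
    have hG := G_eq (q : ℚ) hq1 m
    simp only [jt] at hJ
    simp only [gt] at hG
    rw [hJ] at hdc3
    rw [Finset.sum_range_succ'] at hdc3
    have hG2 := congrArg (fun z : ℚ => z * (q : ℚ) ^ (m ^ 2)) hG
    rw [Finset.sum_mul, Finset.sum_range_succ'] at hG2
    have hterm : ∀ e ∈ Finset.range m, Iq (q : ℚ) m (e + 1) * (((-1) ^ (e + 1) * (q : ℚ) ^ ((e + 1).choose 2)) * (τ (e + 1) : ℚ)) =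
        Iq (q : ℚ) m (e + 1) * ((-1) ^ (e + 1) * (q : ℚ) ^ ((m - (e + 1)) ^ 2)) * (q : ℚ) ^ (m ^ 2) := by
      intro e he
      have he' : e + 1 ≤ m := Finset.mem_range.1 he
      obtain ⟨l, hl⟩ := Nat.exists_eq_add_of_le he'
      have e1 : m - (e + 1) = l := by omega
      simp only [τ, Nat.succ_ne_zero, if_false, e1]
      push_cast
      have e2 := expo (e + 1) l
      rw [← hl] at e2
      have e3 : (q : ℚ) ^ ((e + 1).choose 2) * ((q : ℚ) ^ ((e + 1) * (e + 1 + 1) / 2 + 2 * (e + 1) * l) * (q : ℚ) ^ (2 * l ^ 2)) =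
          (q : ℚ) ^ (l ^ 2) * (q : ℚ) ^ (m ^ 2) := by
        rw [← pow_add, ← pow_add, ← pow_add, ← add_assoc, e2]
      linear_combination (Iq (q : ℚ) m (e + 1) * (-1) ^ (e + 1)) * e3
    rw [Finset.sum_congr rfl hterm] at hdc3
    have hfinal : (N : ℚ) = (q : ℚ) ^ (2 * m ^ 2) := by
      have h0 : Iq (q : ℚ) m 0 * ((-1) ^ 0 * (q : ℚ) ^ (Nat.choose 0 2) * (τ 0 : ℚ)) = (N : ℚ) := by
        simp [τ]
      have h0' : Iq (q : ℚ) m 0 * ((-1) ^ 0 * (q : ℚ) ^ ((m - 0) ^ 2)) * (q : ℚ) ^ (m ^ 2) = (q : ℚ) ^ (2 * m ^ 2) := by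
        simp only [Iq_zero, pow_zero, one_mul, Nat.sub_zero]
        rw [← pow_add]
        congr 1
        ring
      rw [h0] at hdc3
      rw [h0'] at hG2
      linarith
    exact_mod_cast hfinal

omit [Finite F] [FiniteDimensional F V] in
/-- `p`-elements are the unipotent automorphisms. -/
theorem order_iff (p : ℕ) [Fact p.Prime] [CharP F p] (g : V ≃ₗ[F] V) :
    (∃ k, orderOf g = p ^ k) ↔ IsNilpotent (dV g) := by
  classical
  have hp : p.Prime := Fact.out
  let ι : (V ≃ₗ[F] V) →* Module.End F V := LinearEquiv.automorphismGroup.toLinearMapMonoidHom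
  have hι : ∀ n, (ι g) ^ n = ι (g ^ n) := fun n => (map_pow ι g n).symm
  have hinj : Function.Injective ι := fun a b h => LinearEquiv.toLinearMap_injective h
  have hd : dV g = ι g - 1 := rfl
  by_cases hV : Subsingleton V
  · have h1 : g = 1 := by
      ext x
      exact Subsingleton.elim _ _
    constructor
    · intro _
      refine ⟨1, ?_⟩
      ext x
      exact Subsingleton.elim _ _
    · intro _
      exact ⟨0, by simp [h1]⟩
  · haveI : Nontrivial V := not_subsingleton_iff_nontrivial.1 hV
    haveI : CharP (Module.End F V) p :=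
      charP_of_injective_algebraMap (algebraMap F (Module.End F V)).injective p
    constructor
    · rintro ⟨k, hk⟩
      refine ⟨p ^ k, ?_⟩
      have h1 : g ^ p ^ k = 1 := by
        rw [← hk]
        exact pow_orderOf_eq_one g
      rw [hd, sub_pow_char_pow_of_commute p k (Commute.one_right _), hι, h1, one_pow, map_one, sub_self]
    · rintro ⟨n, hn⟩
      have hle : n ≤ p ^ n := (Nat.lt_pow_self hp.one_lt).le
      have h1 : dV g ^ p ^ n = 0 := pow_eq_zero_of_le hle hn
      rw [hd, sub_pow_char_pow_of_commute p n (Commute.one_right _), hι, one_pow, sub_eq_zero] at h1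
      have h2 : g ^ p ^ n = 1 := hinj (by rw [h1, map_one])
      obtain ⟨j, -, hj⟩ := (Nat.dvd_prime_pow hp).1 (orderOf_dvd_of_pow_eq_one h2)
      exact ⟨j, hj⟩

end Cfsg.Agent.Lib.SpUnip.Main
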